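import Cfsg.Agent.Lib.Helper11.P6o.Model
import Cfsg.Agent.Lib.Helper11.Order
import Cfsg.Agent.Lib.Helper11.OrderW

set_option autoImplicit false
set_option maxRecDepth 100000

namespace Cfsg.Agent.Lib.Helper11.P6o

open Cfsg.Spor Cfsg.Agent.Lib.Helper11.P6 Cfsg.Agent.Lib.Helper11.P6a

set_option maxHeartbeats 0

noncomputable def mnets : List (List (ℕ × ℕ)) := []
noncomputable def ntl2 : List (List (ℕ × ℕ)) := ntl ++ mnets
def macs : List (List ℕ) := [
  ]
def levels : List (List ℕ × ℕ × ℕ × ℕ × ℕ) := [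
  ([1, 2, 3, 4, 5, 6, 1, 3, 4, 5, 6], 6, 0, 0, 5586),
  ([1, 3, 4, 5, 6], 4, 1401, 1401, 672)]

theorem nets2OK : ntl2.all (fun net => net.all (stOK (2 ^ (2 ^ 13)))) = true := by decide +kernel
theorem macOK : macChk (ntOf ntl2) 13 7 macs = true := by decide +kernel
theorem chainOK : chainChk (ntOf ntl2) 7 levels [] = true := by decide +kernel

theorem hrange : ∀ l < 7, netPerm (ntOf ntl2 l) ∈ psi.range := by
  have h0 : ∀ l < 7, netPerm (ntOf ntl2 l) ∈ psi.range := by
    intro l hl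
    refine ⟨PresentedGroup.mk _ ((WExp.l l).eval (fun l => LTFm.getD l 1)), ?_⟩
    rw [psi_eval]
    show wordPerm (ntOf ntl) [l] = _
    rw [wordPerm_single]
    have hlen : ntl.length = 7 := by decide +kernel
    have e : ntOf ntl l = ntOf ntl2 l := by
      unfold ntOf ntl2
      rw [List.getD_append _ _ _ _ (by omega)]
    rw [e]
  exact macChk_spec psi (ntOf ntl2) 13 (ntOf_ok ntl2 _ nets2OK) macs 7 macOK h0

theorem order (hup : Nat.card Cfsg.Agent.Lib.Helper11.P6 ≠ 0 ∧ Nat.card Cfsg.Agent.Lib.Helper11.P6 ≤ 3753792) :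
    Nat.card Cfsg.Agent.Lib.Helper11.P6 = 3753792 ∧ stabL psi (pushB levels []) = ⊥ :=
  order_of_chain psi _ (ntOf ntl2) (ntOf_ok ntl2 _ nets2OK) 7 hrange levels chainOK 3753792
    (by decide +kernel) hup

theorem hbn : ∀ b ∈ pushB levels [], b < 5586 := by decide


end Cfsg.Agent.Lib.Helper11.P6o
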